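import Mathlib
import Cfsg.Prelude.Def_OddOrderLocal

set_option autoImplicit false

namespace Cfsg.Agent.Lib.Helper82.HT

theorem perm_apply_inv {Ω : Type*} (σ : Equiv.Perm Ω) (x : Ω) : σ (σ⁻¹ x) = x := by
  rw [← Equiv.Perm.mul_apply, mul_inv_cancel, Equiv.Perm.one_apply]

/-- Lemma S: an `r`-subgroup `A` of a finite group has a conjugate inside any subgroup `H` whose
index is prime to `r`. -/
theorem exists_conj_le_of_pgroup {G : Type*} [Group G] [Finite G] (H A : Subgroup G) (r : ℕ)
    [Fact r.Prime] (hA : IsPGroup r A) (hr : ¬ r ∣ H.index) :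
    ∃ g : G, ∀ a ∈ A, g * a * g⁻¹ ∈ H := by
  obtain ⟨x, hx⟩ := hA.nonempty_fixed_point_of_prime_not_dvd_card (G ⧸ H)
    (by simpa [Subgroup.index] using hr)
  induction x using QuotientGroup.induction_on with
  | H g =>
    refine ⟨g⁻¹, fun a ha => ?_⟩
    have h1 := hx ⟨a, ha⟩
    have h2 : ((a * g : G) : G ⧸ H) = (g : G ⧸ H) := h1
    rw [QuotientGroup.eq] at h2
    have h3 := H.inv_mem h2
    simpa [mul_assoc] using h3

theorem exists_cycle_mem {Ω : Type*} [Fintype Ω] [DecidableEq Ω] {π : Set ℕ}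
    {H : Subgroup (Equiv.Perm Ω)} (hH : Cfsg.IsPiHall π H) (r : ℕ) (hr : r.Prime) (hrπ : r ∈ π)
    (hrn : r ≤ Fintype.card Ω) : ∃ b ∈ H, b.IsCycle ∧ b.support.card = r := by
  have : Fact r.Prime := ⟨hr⟩
  obtain ⟨s, -, hs⟩ := Finset.exists_subset_card_eq (s := (Finset.univ : Finset Ω))
    (by simpa using hrn)
  have hnd : s.toList.Nodup := s.nodup_toList
  have hlen : s.toList.length = r := by rw [Finset.length_toList, hs]
  have hcyc : (s.toList.formPerm).IsCycle :=
    List.isCycle_formPerm hnd (by rw [hlen]; exact hr.two_le)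
  have hsupp : (s.toList.formPerm).support = s := by
    rw [List.support_formPerm_of_nodup _ hnd, Finset.toList_toFinset]
    intro x hx
    have h1 := congrArg List.length hx
    rw [hlen] at h1
    simp at h1
    exact hr.one_lt.ne' h1
  have hord : orderOf (s.toList.formPerm) = r := by rw [hcyc.orderOf, hsupp, hs]
  have hA : IsPGroup r (Subgroup.zpowers (s.toList.formPerm)) := by
    apply IsPGroup.of_card (n := 1)
    rw [Nat.card_zpowers, hord, pow_one]
  obtain ⟨g, hg⟩ := exists_conj_le_of_pgroup H (Subgroup.zpowers (s.toList.formPerm)) r hA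
    (hH.2 r hr hrπ)
  refine ⟨g * s.toList.formPerm * g⁻¹, hg _ (Subgroup.mem_zpowers _), hcyc.conj, ?_⟩
  rw [Equiv.Perm.card_support_conj, hsupp, hs]

theorem exists_invol_swaps {Ω : Type*} [Fintype Ω] [DecidableEq Ω] {π : Set ℕ}
    {H : Subgroup (Equiv.Perm Ω)} (hH : Cfsg.IsPiHall π H) (h2 : 2 ∈ π) :
    ∃ f : Ω → Ω, (∀ y, Equiv.swap y (f y) ∈ H) ∧ ∀ y z, f y = y → f z = z → y = z := by
  have : Fact (Nat.Prime 2) := ⟨Nat.prime_two⟩
  obtain ⟨g0, hg0⟩ := (Equiv.Perm.exists_with_cycleType_iff (α := Ω)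
      (m := Multiset.replicate (Fintype.card Ω / 2) 2)).2 ⟨by
        rw [Multiset.sum_replicate, smul_eq_mul]; exact Nat.div_mul_le_self _ _,
        fun a ha => by rw [Multiset.eq_of_mem_replicate ha]⟩
  have hsq : g0 ^ 2 = 1 := by
    rw [← orderOf_dvd_iff_pow_eq_one, ← Equiv.Perm.lcm_cycleType, hg0]
    exact Multiset.lcm_dvd.2 (fun a ha => by rw [Multiset.eq_of_mem_replicate ha])
  have hinv : ∀ x, g0 (g0 x) = x := fun x => by
    have h1 := congrArg (fun σ : Equiv.Perm Ω => σ x) hsq
    simpa [pow_two] using h1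
  have hfix : ∀ y z, g0 y = y → g0 z = z → y = z := by
    have hcard : (g0.supportᶜ).card ≤ 1 := by
      rw [Finset.card_compl, ← Equiv.Perm.sum_cycleType, hg0, Multiset.sum_replicate,
        smul_eq_mul]
      omega
    intro y z hy hz
    exact Finset.card_le_one.1 hcard y (by simpa using hy) z (by simpa using hz)
  let A : Subgroup (Equiv.Perm Ω) :=
    { carrier := {σ | ∀ x, σ x = x ∨ σ x = g0 x}
      one_mem' := fun x => Or.inl rfl
      mul_mem' := by
        intro σ τ hσ hτ x
        rw [Equiv.Perm.mul_apply]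
        rcases hτ x with h | h
        · rw [h]; exact hσ x
        · rw [h]
          rcases hσ (g0 x) with h' | h'
          · exact Or.inr h'
          · exact Or.inl (by rw [h', hinv])
      inv_mem' := by
        intro σ hσ x
        rcases hσ (σ⁻¹ x) with h | h
        · left
          rw [perm_apply_inv] at h
          exact h.symm
        · right
          rw [perm_apply_inv] at h
          have h3 := congrArg g0 h
          rw [hinv] at h3
          exact h3.symm }
  have hAmem : ∀ σ : Equiv.Perm Ω, σ ∈ A ↔ ∀ x, σ x = x ∨ σ x = g0 x := fun σ => Iff.rfl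
  have hA : IsPGroup 2 A := by
    rintro ⟨σ, hσ⟩
    refine ⟨1, Subtype.ext ?_⟩
    rw [Subgroup.coe_pow, Subgroup.coe_one, pow_one]
    show σ ^ 2 = 1
    ext x
    rw [pow_two, Equiv.Perm.mul_apply, Equiv.Perm.one_apply]
    rcases (hAmem σ).1 hσ x with h | h
    · rw [h, h]
    · rcases (hAmem σ).1 hσ (σ x) with h' | h'
      · have h4 := σ.injective h'
        rw [h', h4]
      · rw [h', h, hinv]
  have hsw : ∀ x, Equiv.swap x (g0 x) ∈ A := by
    intro x
    rw [hAmem]
    intro z
    by_cases h1 : z = x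
    · right; rw [h1, Equiv.swap_apply_left]
    · by_cases h2 : z = g0 x
      · right; rw [h2, Equiv.swap_apply_right, hinv]
      · left; exact Equiv.swap_apply_of_ne_of_ne h1 h2
  obtain ⟨g, hg⟩ := exists_conj_le_of_pgroup H A 2 hA (hH.2 2 Nat.prime_two h2)
  refine ⟨fun y => g (g0 (g⁻¹ y)), fun y => ?_, fun y z hy hz => ?_⟩
  · have h1 := hg _ (hsw (g⁻¹ y))
    rw [← Equiv.swap_apply_apply, perm_apply_inv] at h1
    exact h1
  · have hy' : g0 (g⁻¹ y) = g⁻¹ y := by
      apply g.injective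
      rw [perm_apply_inv]; exact hy
    have hz' : g0 (g⁻¹ z) = g⁻¹ z := by
      apply g.injective
      rw [perm_apply_inv]; exact hz
    exact (g⁻¹).injective (hfix _ _ hy' hz')

end Cfsg.Agent.Lib.Helper82.HT
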